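import Cfsg.Agent.H41.C3TC.Ku.RTab

set_option autoImplicit false
set_option linter.all false
set_option Elab.async false

namespace Cfsg.Agent.H41.C3P

open Cfsg.Agent.H35

theorem tc3ku_rchk_20 : allR tc3ku_rf 15350 8 (20 * 2 ^ 8) = true := by decide +kernel
theorem tc3ku_rchk_21 : allR tc3ku_rf 15350 8 (21 * 2 ^ 8) = true := by decide +kernel
theorem tc3ku_rchk_22 : allR tc3ku_rf 15350 8 (22 * 2 ^ 8) = true := by decide +kernel
theorem tc3ku_rchk_23 : allR tc3ku_rf 15350 8 (23 * 2 ^ 8) = true := by decide +kernel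
theorem tc3ku_rchk_24 : allR tc3ku_rf 15350 8 (24 * 2 ^ 8) = true := by decide +kernel
theorem tc3ku_rchk_25 : allR tc3ku_rf 15350 8 (25 * 2 ^ 8) = true := by decide +kernel
theorem tc3ku_rchk_26 : allR tc3ku_rf 15350 8 (26 * 2 ^ 8) = true := by decide +kernel
theorem tc3ku_rchk_27 : allR tc3ku_rf 15350 8 (27 * 2 ^ 8) = true := by decide +kernel
theorem tc3ku_rchk_28 : allR tc3ku_rf 15350 8 (28 * 2 ^ 8) = true := by decide +kernel
theorem tc3ku_rchk_29 : allR tc3ku_rf 15350 8 (29 * 2 ^ 8) = true := by decide +kernel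
theorem tc3ku_rchk_30 : allR tc3ku_rf 15350 8 (30 * 2 ^ 8) = true := by decide +kernel
theorem tc3ku_rchk_31 : allR tc3ku_rf 15350 8 (31 * 2 ^ 8) = true := by decide +kernel
theorem tc3ku_rchk_32 : allR tc3ku_rf 15350 8 (32 * 2 ^ 8) = true := by decide +kernel
theorem tc3ku_rchk_33 : allR tc3ku_rf 15350 8 (33 * 2 ^ 8) = true := by decide +kernel
theorem tc3ku_rchk_34 : allR tc3ku_rf 15350 8 (34 * 2 ^ 8) = true := by decide +kernel
theorem tc3ku_rchk_35 : allR tc3ku_rf 15350 8 (35 * 2 ^ 8) = true := by decide +kernel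
theorem tc3ku_rchk_36 : allR tc3ku_rf 15350 8 (36 * 2 ^ 8) = true := by decide +kernel
theorem tc3ku_rchk_37 : allR tc3ku_rf 15350 8 (37 * 2 ^ 8) = true := by decide +kernel
theorem tc3ku_rchk_38 : allR tc3ku_rf 15350 8 (38 * 2 ^ 8) = true := by decide +kernel
theorem tc3ku_rchk_39 : allR tc3ku_rf 15350 8 (39 * 2 ^ 8) = true := by decide +kernel

end Cfsg.Agent.H41.C3P
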