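import Cfsg.Agent.H41.C3TC.Ku.RChk0
import Cfsg.Agent.H41.C3TC.Ku.RChk1
import Cfsg.Agent.H41.C3TC.Ku.RChk2

set_option autoImplicit false
set_option linter.all false

namespace Cfsg.Agent.H41.C3P

open Cfsg.Agent.H35

theorem tc3ku_rall : ∀ p, p < 15350 → tc3ku_rf p = true := by
  apply allR_blocks tc3ku_rf 15350 8 60 _ (by decide)
  intro k hk
  interval_cases k
  · exact tc3ku_rchk_0
  · exact tc3ku_rchk_1
  · exact tc3ku_rchk_2
  · exact tc3ku_rchk_3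
  · exact tc3ku_rchk_4
  · exact tc3ku_rchk_5
  · exact tc3ku_rchk_6
  · exact tc3ku_rchk_7
  · exact tc3ku_rchk_8
  · exact tc3ku_rchk_9
  · exact tc3ku_rchk_10
  · exact tc3ku_rchk_11
  · exact tc3ku_rchk_12
  · exact tc3ku_rchk_13
  · exact tc3ku_rchk_14
  · exact tc3ku_rchk_15
  · exact tc3ku_rchk_16
  · exact tc3ku_rchk_17
  · exact tc3ku_rchk_18
  · exact tc3ku_rchk_19
  · exact tc3ku_rchk_20
  · exact tc3ku_rchk_21
  · exact tc3ku_rchk_22
  · exact tc3ku_rchk_23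
  · exact tc3ku_rchk_24
  · exact tc3ku_rchk_25
  · exact tc3ku_rchk_26
  · exact tc3ku_rchk_27
  · exact tc3ku_rchk_28
  · exact tc3ku_rchk_29
  · exact tc3ku_rchk_30
  · exact tc3ku_rchk_31
  · exact tc3ku_rchk_32
  · exact tc3ku_rchk_33
  · exact tc3ku_rchk_34
  · exact tc3ku_rchk_35
  · exact tc3ku_rchk_36
  · exact tc3ku_rchk_37
  · exact tc3ku_rchk_38
  · exact tc3ku_rchk_39
  · exact tc3ku_rchk_40
  · exact tc3ku_rchk_41
  · exact tc3ku_rchk_42
  · exact tc3ku_rchk_43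
  · exact tc3ku_rchk_44
  · exact tc3ku_rchk_45
  · exact tc3ku_rchk_46
  · exact tc3ku_rchk_47
  · exact tc3ku_rchk_48
  · exact tc3ku_rchk_49
  · exact tc3ku_rchk_50
  · exact tc3ku_rchk_51
  · exact tc3ku_rchk_52
  · exact tc3ku_rchk_53
  · exact tc3ku_rchk_54
  · exact tc3ku_rchk_55
  · exact tc3ku_rchk_56
  · exact tc3ku_rchk_57
  · exact tc3ku_rchk_58
  · exact tc3ku_rchk_59

theorem tc3ku_circ_ok : circChk (fullW c3ku_rws c3ku_prels) tc3ku_circT 0 tc3ku_ccert = true := by decide +kernel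
theorem tc3ku_hc_ok : allR (fun c => hcChk tc3ku_rsw tc3ku_hc1T tc3ku_hc2T c) 2 1 0 = true := by decide +kernel
theorem tc3ku_h0 : RData.aord (tc3ku_rd.ent 0 1) = 0 := by decide +kernel

end Cfsg.Agent.H41.C3P
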